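import Cfsg.Agent.Lib.NDF.ChiefE
import Cfsg.Agent.Lib.NDF.CyclicFpf
import Cfsg.Agent.Lib.NDF.BurnsideLayer
import Cfsg.Agent.Lib.NDF.Beisiegel
import Mathlib.Tactic

/-!
# S4780, block D (`no_layer0`), parts (a)-(e).
-/

set_option autoImplicit false
set_option linter.unusedSectionVars false
set_option linter.style.haveILetI false

namespace Cfsg.Agent.Lib.NDF.NoLayer

open Cfsg Cfsg.Agent.Lib.NoDiv.Defs Cfsg.Agent.Lib.NDF.Defs

universe u

variable {G : Type u} [Group G]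

/-- Schur-Zassenhaus for an `r`-elementary normal subgroup with `p`-power quotient. -/
theorem exists_compl [Finite G] {W N : Subgroup G} (hNW : N ≤ W) (hNn : N.Normal)
    {p r : ℕ} (hp : p.Prime) (hr : r.Prime) (hrp : r ≠ p) (hNr : ∀ n ∈ N, n ^ r = 1)
    (hWp : ∀ a ∈ W, ∃ k : ℕ, a ^ (p ^ k) ∈ N) :
    ∃ Wt : Subgroup G, Wt ≤ W ∧ (∀ x, x ∈ N → x ∈ Wt → x = 1) ∧
      (∀ a ∈ W, ∃ n ∈ N, ∃ w ∈ Wt, a = n * w) ∧ (∀ w ∈ Wt, ∃ k : ℕ, w ^ (p ^ k) = 1) := by
  classical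
  haveI : Fact p.Prime := ⟨hp⟩
  haveI : Fact r.Prime := ⟨hr⟩
  let N' : Subgroup W := N.subgroupOf W
  haveI hN' : N'.Normal := hNn.subgroupOf W
  have h1 : IsPGroup r N' := by
    intro n
    refine ⟨1, ?_⟩
    apply Subtype.ext
    apply Subtype.ext
    simpa using hNr _ n.2
  have h2 : IsPGroup p (W ⧸ N') := by
    intro q
    obtain ⟨a, rfl⟩ := QuotientGroup.mk_surjective q
    obtain ⟨k, hk⟩ := hWp a a.2
    refine ⟨k, ?_⟩
    rw [← QuotientGroup.mk_pow, QuotientGroup.eq_one_iff]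
    exact hk
  obtain ⟨m, hm⟩ := IsPGroup.iff_card.1 h1
  obtain ⟨l, hl⟩ := IsPGroup.iff_card.1 h2
  have hcop : Nat.Coprime (Nat.card N') N'.index := by
    rw [Subgroup.index_eq_card, hm, hl]
    exact Nat.Coprime.pow _ _ ((Nat.coprime_primes hr hp).2 hrp)
  obtain ⟨K, hK⟩ := Subgroup.exists_right_complement'_of_coprime hcop
  refine ⟨K.map W.subtype, Subgroup.map_subtype_le K, ?_, ?_, ?_⟩
  · rintro x hxN ⟨y, hy, rfl⟩
    have hyN : y ∈ N' := hxN
    have := Subgroup.disjoint_def.1 hK.disjoint hyN hy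
    simp [this]
  · intro a ha
    obtain ⟨⟨⟨n, hn⟩, ⟨w, hw⟩⟩, h, -⟩ := hK.existsUnique ⟨a, ha⟩
    refine ⟨n, hn, w, ⟨w, hw, rfl⟩, ?_⟩
    have := congrArg Subtype.val h
    simpa using this.symm
  · rintro _ ⟨y, hy, rfl⟩
    obtain ⟨k, hk⟩ := h2 (y : W ⧸ N')
    refine ⟨k, ?_⟩
    have h3 : y ^ (p ^ k) ∈ N' := by
      rw [← QuotientGroup.eq_one_iff, QuotientGroup.mk_pow]
      exact hk
    have := Subgroup.disjoint_def.1 hK.disjoint h3 (K.pow_mem hy _)
    simpa using congrArg Subtype.val this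

/-- The class-two power formula. -/
theorem pow_class_two {X : Type u} [Group X] (x y c : X) (hc : y * x = x * y * c)
    (hcx : Commute c x) (hcy : Commute c y) (n : ℕ) :
    (x * y) ^ n = x ^ n * y ^ n * c ^ (Nat.choose n 2) := by
  have h1 : ∀ m : ℕ, y ^ m * x = x * y ^ m * c ^ m := by
    intro m
    induction m with
    | zero => simp
    | succ m ih =>
      calc y ^ (m + 1) * x = y ^ m * (y * x) := by rw [pow_succ, mul_assoc]
        _ = y ^ m * x * y * c := by rw [hc]; group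
        _ = x * y ^ m * c ^ m * y * c := by rw [ih]
        _ = x * y ^ m * (c ^ m * y) * c := by group
        _ = x * y ^ m * (y * c ^ m) * c := by rw [(hcy.pow_left m).eq]
        _ = x * y ^ (m + 1) * c ^ (m + 1) := by rw [pow_succ y, pow_succ c]; group
  induction n with
  | zero => simp
  | succ n ih =>
    have h2 : Nat.choose (n + 1) 2 = Nat.choose n 2 + n := by
      rw [Nat.choose_succ_succ' n 1, Nat.choose_one_right]; ring
    rw [pow_succ, ih, h2]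
    calc x ^ n * y ^ n * c ^ Nat.choose n 2 * (x * y)
        = x ^ n * y ^ n * (c ^ Nat.choose n 2 * x) * y := by group
      _ = x ^ n * y ^ n * (x * c ^ Nat.choose n 2) * y := by rw [(hcx.pow_left _).eq]
      _ = x ^ n * (y ^ n * x) * c ^ Nat.choose n 2 * y := by group
      _ = x ^ n * (x * y ^ n * c ^ n) * c ^ Nat.choose n 2 * y := by rw [h1]
      _ = x ^ (n + 1) * y ^ n * (c ^ n * c ^ Nat.choose n 2 * y) := by rw [pow_succ x]; group
      _ = x ^ (n + 1) * y ^ n * (y * (c ^ n * c ^ Nat.choose n 2)) := by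
        rw [((hcy.pow_left n).mul_left (hcy.pow_left _)).eq]
      _ = x ^ (n + 1) * y ^ (n + 1) * c ^ (Nat.choose n 2 + n) := by
        rw [pow_succ y, pow_add c, (Commute.pow_pow (Commute.refl c) _ _).eq]; group

/-- The structure of the `p`-layer. -/
structure Layer (H N Wt : Subgroup G) (p : ℕ) : Prop where
  WtW : Wt ≤ commutator G
  NWt : ∀ x, x ∈ N → x ∈ Wt → x = 1
  dec : ∀ a ∈ commutator G, ∃ n ∈ N, ∃ w ∈ Wt, a = n * w
  pg : ∀ w ∈ Wt, ∃ k : ℕ, w ^ (p ^ k) = 1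
  fpf : ∀ g ∈ Wt, g ∉ (⁅H, H⁆ : Subgroup G) → ∀ n ∈ N, g * n * g⁻¹ = n → n = 1
  card : Nat.card ((⁅H, H⁆ : Subgroup G).subgroupOf Wt) = p
  idx : ((⁅H, H⁆ : Subgroup G).subgroupOf Wt).index = p ^ 2
  cen : ∀ e ∈ (⁅H, H⁆ : Subgroup G), e ∈ Wt → ∀ a ∈ Wt, a * e = e * a

/-- Parts (a)-(d). -/
theorem layer_core [Finite G] [Group.IsSolvable G] {H Y : Subgroup G} (s : St H Y)
    (hcam : ∀ c ∈ H, c ∉ Y → ∀ e ∈ (⁅H, H⁆ : Subgroup G), ∃ b ∈ H, b * c * b⁻¹ = c * e)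
    {p : ℕ} (hp : p.Prime)
    (hel : ∀ c ∈ H, c ^ p ∈ Y)
    {N : Subgroup G} (hN : Chief ⊥ N) (hNE : N ≤ ⁅H, H⁆) {r : ℕ} (hr : r.Prime) (hrp : r ≠ p)
    (hNr : ∀ n ∈ N, n ^ r = 1) (hEN : ∀ e ∈ (⁅H, H⁆ : Subgroup G), ∃ k : ℕ, e ^ (p ^ k) ∈ N)
    (hE1 : N ≠ ⁅H, H⁆) (hEab : (⁅(⁅H, H⁆ : Subgroup G), (⁅H, H⁆ : Subgroup G)⁆ : Subgroup G) ≤ N)
    (hcamW : ∀ a ∈ commutator G, a ∉ (⁅H, H⁆ : Subgroup G) → ∀ e ∈ (⁅H, H⁆ : Subgroup G),
      ∃ b ∈ commutator G, (b * a * b⁻¹)⁻¹ * (a * e) ∈ N) :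
    ∃ Wt : Subgroup G, Layer H N Wt p := by
  classical
  haveI : Fact p.Prime := ⟨hp⟩
  haveI hHn : H.Normal := s.nH
  haveI hEn : (⁅H, H⁆ : Subgroup G).Normal := Subgroup.commutator_normal H H
  have hNn : N.Normal := hN.nL
  have hEW : (⁅H, H⁆ : Subgroup G) ≤ commutator G := by
    rw [← s.E2]
    exact Subgroup.commutator_le_left _ _
  have hWH : commutator G ≤ H := by
    rw [commutator_def, Subgroup.commutator_le]
    intro a _ b _
    exact s.ab a b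
  have hNW : N ≤ commutator G := hNE.trans hEW
  have hEY : (⁅H, H⁆ : Subgroup G) ≤ Y := by
    rw [Subgroup.commutator_le]
    intro a ha' b hb'
    exact s.HY a ha' b hb'
  have hYW : ∀ a ∈ commutator G, a ∈ Y → a ∈ (⁅H, H⁆ : Subgroup G) := by
    intro a ha hy
    rw [← s.GE]
    exact ⟨ha, hy⟩
  have hWp0 : ∀ a ∈ commutator G, a ^ p ∈ (⁅H, H⁆ : Subgroup G) := fun a ha =>
    hYW _ ((commutator G).pow_mem ha p) (hel a (hWH ha))
  have hWp : ∀ a ∈ commutator G, ∃ k : ℕ, a ^ (p ^ k) ∈ N := by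
    intro a ha
    obtain ⟨k, hk⟩ := hEN _ (hWp0 a ha)
    refine ⟨k + 1, ?_⟩
    rw [pow_succ', pow_mul]
    exact hk
  obtain ⟨Wt, hWtW, hNWt, hdec, hpg⟩ := exists_compl hNW hNn hp hr hrp hNr hWp
  -- (a)
  have ha : ∀ g ∈ Wt, g ∉ (⁅H, H⁆ : Subgroup G) → ∀ n ∈ N, g * n * g⁻¹ = n → n = 1 := by
    intro g hg hgE n hn hgn
    have hgY : g ∉ Y := fun h => hgE (hYW g (hWtW hg) h)
    obtain ⟨b, hb, hbe⟩ := hcam g (hWH (hWtW hg)) hgY n (hNE hn)
    obtain ⟨k, hk⟩ := hpg g hg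
    have hc : Commute g n := mul_inv_eq_iff_eq_mul.mp hgn
    have h1 : (g * n) ^ (p ^ k) = 1 := by
      rw [← hbe, conj_pow, hk]; group
    have h2 : n ^ (p ^ k) = 1 := by
      rw [hc.mul_pow, hk, one_mul] at h1; exact h1
    have h3 := hNr n hn
    have h4 : orderOf n ∣ Nat.gcd r (p ^ k) :=
      Nat.dvd_gcd (orderOf_dvd_of_pow_eq_one h3) (orderOf_dvd_of_pow_eq_one h2)
    have h5 : Nat.gcd r (p ^ k) = 1 :=
      Nat.Coprime.pow_right _ ((Nat.coprime_primes hr hp).2 hrp)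
    rw [h5, Nat.dvd_one, orderOf_eq_one_iff] at h4
    exact h4
  have hNab := Cfsg.Agent.Lib.NDF.ChiefE.chief_comm hN
  have hNab' : ∀ a ∈ N, ∀ b ∈ N, a * b = b * a := by
    intro a ha' b hb'
    have h := hNab a ha' b hb'
    rw [Subgroup.mem_bot] at h
    exact mul_inv_eq_iff_eq_mul.mp (mul_inv_eq_one.mp h)
  have hN1 : N ≠ ⊥ := fun h => hN.ne h.symm
  -- (b)
  have hb : ∀ a ∈ Wt, a ∉ (⁅H, H⁆ : Subgroup G) → ∀ b ∈ Wt, a * b = b * a →
      ∃ k : ℕ, b * (a ^ k)⁻¹ ∈ (⁅H, H⁆ : Subgroup G) := by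
    intro a haW haE b hbW hab
    let U : Subgroup G := Subgroup.closure {a, b}
    have hUW : U ≤ Wt := by
      rw [Subgroup.closure_le]
      rintro x (rfl | rfl)
      · exact haW
      · exact hbW
    have hkc : ∀ x ∈ ({a, b} : Set G), ∀ y ∈ ({a, b} : Set G), x * y = y * x := by
      rintro x (rfl | rfl) y (rfl | rfl)
      · rfl
      · exact hab
      · exact hab.symm
      · rfl
    have hUc : ∀ u ∈ U, ∀ v ∈ U, u * v = v * u := by
      intro u hu v hv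
      letI := Subgroup.closureCommGroupOfComm hkc
      exact congrArg Subtype.val (mul_comm (⟨u, hu⟩ : U) ⟨v, hv⟩)
    obtain ⟨c, hcU, hc⟩ := Cfsg.Agent.Lib.NDF.CyclicFpf.cyclic_fpf (N := N) (U := U)
      (J := U ⊓ ⁅H, H⁆) hNab' hN1 (fun u _ n hn => hNn.conj_mem n hn u)
      (by
        intro u hu v hv n _
        rw [show u * (v * n * v⁻¹) * u⁻¹ = (u * v) * n * (u * v)⁻¹ by group, hUc u hu v hv]
        group)
      inf_le_left
      (by
        intro u hu huJ n hn hun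
        refine ha u (hUW hu) (fun h => huJ ⟨hu, h⟩) n hn hun)
    obtain ⟨i, hi⟩ := hc a (Subgroup.subset_closure (by simp))
    obtain ⟨j, hj⟩ := hc b (Subgroup.subset_closure (by simp))
    have hcp : c ^ p ∈ (⁅H, H⁆ : Subgroup G) := hWp0 c (hWtW (hUW hcU))
    let π : G →* G ⧸ (⁅H, H⁆ : Subgroup G) := QuotientGroup.mk' _
    have hπ : ∀ g, π g = 1 ↔ g ∈ (⁅H, H⁆ : Subgroup G) := fun g => QuotientGroup.eq_one_iff g
    have h1 : π a = π c ^ i := by
      have := (hπ _).2 hi.2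
      rw [map_mul, map_inv, map_pow, mul_inv_eq_one] at this
      exact this
    have h2 : π b = π c ^ j := by
      have := (hπ _).2 hj.2
      rw [map_mul, map_inv, map_pow, mul_inv_eq_one] at this
      exact this
    have h3 : π c ^ p = 1 := by
      rw [← map_pow, hπ]; exact hcp
    have hpi : ¬ p ∣ i := by
      rintro ⟨t, rfl⟩
      apply haE
      rw [← hπ, h1, pow_mul, h3, one_pow]
    obtain ⟨x, hx⟩ := Nat.exists_mul_mod_eq_one_of_coprime
      (((Nat.Prime.coprime_iff_not_dvd hp).2 hpi).symm) hp.one_lt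
    have h4 : π c = π a ^ x := by
      rw [h1, ← pow_mul, pow_eq_pow_mod _ h3, hx.2, pow_one]
    refine ⟨x * j, ?_⟩
    rw [← hπ, map_mul, map_inv, map_pow, mul_inv_eq_one, h2, h4, pow_mul]
  -- (c)
  let E' : Subgroup Wt := (⁅H, H⁆ : Subgroup G).subgroupOf Wt
  have hE'mem : ∀ x : Wt, x ∈ E' ↔ (x : G) ∈ (⁅H, H⁆ : Subgroup G) := fun x => Iff.rfl
  have hWtp : IsPGroup p Wt := by
    intro w
    obtain ⟨k, hk⟩ := hpg w w.2
    exact ⟨k, Subtype.ext (by simpa using hk)⟩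
  have hE'n : E'.Normal := hEn.subgroupOf Wt
  have hE'ab : ∀ a ∈ E', ∀ b ∈ E', a * b = b * a := by
    intro a ha' b hb'
    have h1 : (a : G) * b * (a : G)⁻¹ * (b : G)⁻¹ ∈ N :=
      hEab (Subgroup.commutator_mem_commutator ha' hb')
    have h2 : (a : G) * b * (a : G)⁻¹ * (b : G)⁻¹ ∈ Wt :=
      Wt.mul_mem (Wt.mul_mem (Wt.mul_mem a.2 b.2) (Wt.inv_mem a.2)) (Wt.inv_mem b.2)
    have h3 := hNWt _ h1 h2
    apply Subtype.ext
    exact mul_inv_eq_iff_eq_mul.mp (mul_inv_eq_one.mp h3)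
  have hexw : ∃ w : Wt, w ∉ E' := by
    obtain ⟨c, hcH, hcY⟩ := s.ne
    obtain ⟨d, hd, hdc⟩ := s.GY c hcH
    have hdY : d ∉ Y := by
      intro h
      apply hcY
      have : c = d * (d⁻¹ * c) := by group
      rw [this]
      exact Y.mul_mem h hdc
    obtain ⟨n, hn, w, hw, rfl⟩ := hdec d hd
    refine ⟨⟨w, hw⟩, fun h => ?_⟩
    exact hdY (hEY ((⁅H, H⁆ : Subgroup G).mul_mem (hNE hn) h))
  have hE'1 : E' ≠ ⊤ := by
    obtain ⟨w, hw⟩ := hexw
    intro h
    rw [h] at hw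
    exact hw (Subgroup.mem_top _)
  have hWW : ∀ a ∈ commutator G, ∀ b ∈ commutator G, a * b * a⁻¹ * b⁻¹ ∈ (⁅H, H⁆ : Subgroup G) := by
    intro a ha' b hb'
    rw [← s.E2]
    exact Subgroup.commutator_mem_commutator ha' hb'
  have hE'ab2 : ∀ a b : Wt, a * b * a⁻¹ * b⁻¹ ∈ E' := by
    intro a b
    exact hWW _ (hWtW a.2) _ (hWtW b.2)
  have hE'el : ∀ a : Wt, a ^ p ∈ E' := fun a => hWp0 _ (hWtW a.2)
  have hE'cam : ∀ a, a ∉ E' → ∀ e ∈ E', ∃ b : Wt, b * a * b⁻¹ = a * e := by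
    intro a haE e he
    obtain ⟨b, hbW, hbN⟩ := hcamW a (hWtW a.2) haE e he
    obtain ⟨n, hn, w, hw, rfl⟩ := hdec b hbW
    refine ⟨⟨w, hw⟩, ?_⟩
    apply Subtype.ext
    show w * (a : G) * w⁻¹ = a * e
    set a₁ := w * (a : G) * w⁻¹ with ha₁
    have ha₁W : a₁ ∈ Wt := Wt.mul_mem (Wt.mul_mem hw a.2) (Wt.inv_mem hw)
    have h1 : a₁⁻¹ * (a * e) = (a₁⁻¹ * n * a₁) * n⁻¹ * (((n * w) * a * (n * w)⁻¹)⁻¹ * (a * e)) := by
      rw [ha₁]; group
    have h2 : a₁⁻¹ * n * a₁ ∈ N := by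
      have := hNn.conj_mem n hn a₁⁻¹
      simpa using this
    have h3 : a₁⁻¹ * ((a : G) * e) ∈ N := by
      rw [h1]
      exact N.mul_mem (N.mul_mem h2 (N.inv_mem hn)) hbN
    have h4 : a₁⁻¹ * ((a : G) * e) ∈ Wt := Wt.mul_mem (Wt.inv_mem ha₁W) (Wt.mul_mem a.2 e.2)
    have h5 := hNWt _ h3 h4
    exact inv_mul_eq_one.mp h5
  have hE'comm : ∀ a b : Wt, a ∉ E' → a * b = b * a → ∃ k : ℕ, b * (a ^ k)⁻¹ ∈ E' := by
    intro a b haE hab
    obtain ⟨k, hk⟩ := hb a a.2 haE b b.2 (congrArg Subtype.val hab)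
    exact ⟨k, by simpa [hE'mem] using hk⟩
  obtain ⟨hidx, hcen⟩ := Cfsg.Agent.Lib.NDF.BurnsideLayer.burnside_layer hp hWtp hE'n hE'ab hE'1
    hE'ab2 hE'el hE'cam hE'comm
  -- (d)
  have hcomE : commutator Wt = E' := by
    apply le_antisymm
    · rw [commutator_def, Subgroup.commutator_le]
      intro a _ b _
      exact hE'ab2 a b
    · intro e he
      obtain ⟨w, hw⟩ := hexw
      obtain ⟨b, hb'⟩ := hE'cam w hw e he
      have h1 : e = w⁻¹ * b * w⁻¹⁻¹ * b⁻¹ := by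
        have : w * e = b * w * b⁻¹ := hb'.symm
        calc e = w⁻¹ * (w * e) := by group
          _ = w⁻¹ * (b * w * b⁻¹) := by rw [this]
          _ = _ := by group
      rw [h1]
      exact Subgroup.commutator_mem_commutator (Subgroup.mem_top _) (Subgroup.mem_top _)
  have hbei := Cfsg.Agent.Lib.NDF.Beisiegel.beisiegel_grp hp hWtp
    (fun e he x => by rw [hcomE] at he; exact (hcen e he x))
    (fun x => by rw [hcomE]; exact hE'el x)
    (fun a ha' e he => by rw [hcomE] at ha' he; exact hE'cam a ha' e he)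
  rw [hcomE, hidx] at hbei
  have hE'pos : 0 < Nat.card E' := Nat.card_pos
  have hle : Nat.card E' ≤ p := by
    rw [pow_two] at hbei
    exact Nat.le_of_mul_le_mul_right hbei hE'pos
  have hE'ne : E' ≠ ⊥ := by
    intro h
    apply hE1
    apply le_antisymm hNE
    intro e he
    obtain ⟨n, hn, w, hw, rfl⟩ := hdec e (hEW he)
    have hwE : w ∈ (⁅H, H⁆ : Subgroup G) := by
      have : w = n⁻¹ * (n * w) := by group
      rw [this]
      exact (⁅H, H⁆ : Subgroup G).mul_mem ((⁅H, H⁆ : Subgroup G).inv_mem (hNE hn)) he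
    have h1 : (⟨w, hw⟩ : Wt) ∈ E' := hwE
    rw [h, Subgroup.mem_bot] at h1
    have h2 : w = 1 := congrArg Subtype.val h1
    rw [h2, mul_one]
    exact hn
  have hcard : Nat.card E' = p := by
    have h1 : IsPGroup p E' := IsPGroup.to_subgroup hWtp E'
    obtain ⟨t, ht⟩ := IsPGroup.iff_card.1 h1
    have ht0 : t ≠ 0 := by
      rintro rfl
      apply hE'ne
      rw [pow_zero] at ht
      exact (Subgroup.card_eq_one (H := E')).1 ht
    have h2 : p ∣ Nat.card E' := by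
      rw [ht]
      exact dvd_pow_self p ht0
    exact le_antisymm hle (Nat.le_of_dvd hE'pos h2)
  refine ⟨Wt, hWtW, hNWt, hdec, hpg, ha, hcard, ?_, ?_⟩
  · show E'.index = p ^ 2
    rw [hidx, hcard, pow_two]
  · intro e he heW a haW
    have := hcen ⟨e, heW⟩ he ⟨a, haW⟩
    exact congrArg Subtype.val this

/-- The quotient `W̃ / E_L` is not cyclic. -/
theorem Layer.noncyc {H Y N Wt : Subgroup G} {p : ℕ} (s : St H Y) (L : Layer H N Wt p)
    (hNE : N ≤ ⁅H, H⁆)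
    (hnc : ∀ c ∈ H, ∃ c' ∈ H, ∀ k : ℕ, c' * (c ^ k)⁻¹ ∉ Y) :
    ∀ c ∈ Wt, ∃ u ∈ Wt, ∀ k : ℕ, u * (c ^ k)⁻¹ ∉ (⁅H, H⁆ : Subgroup G) := by
  intro c hc
  have hWH : commutator G ≤ H := by
    rw [commutator_def, Subgroup.commutator_le]
    intro a _ b _
    exact s.ab a b
  have hEY : (⁅H, H⁆ : Subgroup G) ≤ Y := by
    rw [Subgroup.commutator_le]
    intro a ha' b hb'
    exact s.HY a ha' b hb'
  obtain ⟨c', hc'H, hc'⟩ := hnc c (hWH (L.WtW hc))
  obtain ⟨d, hd, hdc⟩ := s.GY c' hc'H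
  obtain ⟨n, hn, w, hw, rfl⟩ := L.dec d hd
  refine ⟨w, hw, fun k hk => hc' k ?_⟩
  have hY := s.nY
  set y := (n * w)⁻¹ * c' with hy
  have h1 : c' * (c ^ k)⁻¹ = n * (w * (c ^ k)⁻¹) * ((c ^ k) * y * (c ^ k)⁻¹) := by
    rw [hy]; group
  rw [h1]
  exact Y.mul_mem (Y.mul_mem (hEY (hNE hn)) (hEY hk)) (hY.conj_mem y hdc _)

/-- `C_N(E_L) = 1`. -/
theorem Layer.center_fpf [Finite G] [Group.IsSolvable G] {H Y N Wt : Subgroup G} {p : ℕ}
    (hp : p.Prime) (s : St H Y) (L : Layer H N Wt p)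
    (hN : Chief ⊥ N) (hNE : N ≤ ⁅H, H⁆)
    (hnc : ∀ c ∈ H, ∃ c' ∈ H, ∀ k : ℕ, c' * (c ^ k)⁻¹ ∉ Y) :
    ∀ e ∈ (⁅H, H⁆ : Subgroup G), e ∈ Wt → e ≠ 1 → ∀ n ∈ N, e * n * e⁻¹ = n → n = 1 := by
  classical
  haveI : Fact p.Prime := ⟨hp⟩
  haveI hHn : H.Normal := s.nH
  haveI hEn : (⁅H, H⁆ : Subgroup G).Normal := Subgroup.commutator_normal H H
  have hNn := hN.nL
  have hNab := Cfsg.Agent.Lib.NDF.ChiefE.chief_comm hN
  have hNab' : ∀ a ∈ N, ∀ b ∈ N, a * b = b * a := by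
    intro a ha' b hb'
    have h := hNab a ha' b hb'
    rw [Subgroup.mem_bot] at h
    exact mul_inv_eq_iff_eq_mul.mp (mul_inv_eq_one.mp h)
  have hWW : ∀ a ∈ Wt, ∀ b ∈ Wt, a * b * a⁻¹ * b⁻¹ ∈ (⁅H, H⁆ : Subgroup G) := by
    intro a ha' b hb'
    rw [← s.E2]
    exact Subgroup.commutator_mem_commutator (L.WtW ha') (L.WtW hb')
  -- the centraliser of `E_L` in `N`
  let C : Subgroup G := N ⊓ Subgroup.centralizer ((⁅H, H⁆ : Subgroup G) ⊓ Wt : Subgroup G)
  have hCmem : ∀ x, x ∈ C ↔ x ∈ N ∧ ∀ e ∈ (⁅H, H⁆ : Subgroup G), e ∈ Wt → e * x = x * e := by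
    intro x
    simp only [C, Subgroup.mem_inf, Subgroup.mem_centralizer_iff]
    constructor
    · rintro ⟨h1, h2⟩
      exact ⟨h1, fun e he hw => h2 e ⟨he, hw⟩⟩
    · rintro ⟨h1, h2⟩
      exact ⟨h1, fun e he => h2 e he.1 he.2⟩
  have hC : C = ⊥ := by
    by_contra hC1
    obtain ⟨c, hcW, hc⟩ := Cfsg.Agent.Lib.NDF.CyclicFpf.cyclic_fpf (N := C) (U := Wt)
      (J := Wt ⊓ ⁅H, H⁆)
      (fun a ha' b hb' => hNab' a ha'.1 b hb'.1) hC1
      (by
        intro u hu n hn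
        rw [hCmem] at hn ⊢
        refine ⟨hNn.conj_mem n hn.1 u, ?_⟩
        intro e he heW
        -- `e` is central in `Wt`
        have h1 : u⁻¹ * e * u = e := by
          have := L.cen e he heW u hu
          rw [mul_assoc, ← this]; group
        have h2 : e * u = u * e := (L.cen e he heW u hu).symm
        have h3 := hn.2 e he heW
        calc e * (u * n * u⁻¹) = (e * u) * n * u⁻¹ := by group
          _ = u * (e * n) * u⁻¹ := by rw [h2]; group
          _ = u * (n * e) * u⁻¹ := by rw [h3]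
          _ = u * n * (u⁻¹ * e * u) * u⁻¹ := by rw [h1]; group
          _ = u * n * (e * u⁻¹) := by rw [h1]; group
          _ = u * n * (u⁻¹ * (u * e) * u⁻¹) := by group
          _ = u * n * (u⁻¹ * (e * u) * u⁻¹) := by rw [h2]
          _ = u * n * u⁻¹ * e := by group)
      (by
        intro u hu v hv n hn
        have hnn := (hCmem n).1 hn
        have h1 : u⁻¹ * v⁻¹ * u * v ∈ (⁅H, H⁆ : Subgroup G) := by
          have := hWW _ (Wt.inv_mem hu) _ (Wt.inv_mem hv)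
          simpa using this
        have h1W : u⁻¹ * v⁻¹ * u * v ∈ Wt :=
          Wt.mul_mem (Wt.mul_mem (Wt.mul_mem (Wt.inv_mem hu) (Wt.inv_mem hv)) hu) hv
        have h2 := hnn.2 _ h1 h1W
        set t := u⁻¹ * v⁻¹ * u * v with ht
        have h3 : u * v = v * u * t := by rw [ht]; group
        calc u * (v * n * v⁻¹) * u⁻¹ = (u * v) * n * (u * v)⁻¹ := by group
          _ = (v * u * t) * n * (v * u * t)⁻¹ := by rw [h3]
          _ = v * u * (t * n) * t⁻¹ * (v * u)⁻¹ := by group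
          _ = v * u * (n * t) * t⁻¹ * (v * u)⁻¹ := by rw [h2]
          _ = v * (u * n * u⁻¹) * v⁻¹ := by group)
      inf_le_left
      (by
        intro u hu huJ n hn hun
        exact L.fpf u hu (fun h => huJ ⟨hu, h⟩) n hn.1 hun)
    obtain ⟨u, huW, hu⟩ := L.noncyc s hNE hnc c hcW
    obtain ⟨k, hk⟩ := hc u huW
    exact hu k hk.2
  intro e he heW he1 n hn hen
  have hn' : n ∈ C := by
    rw [hCmem]
    refine ⟨hn, fun e' he' he'W => ?_⟩
    -- `E_L` has prime order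
    let E' : Subgroup Wt := (⁅H, H⁆ : Subgroup G).subgroupOf Wt
    have hcard : Nat.card E' = p := L.card
    have hne : (⟨⟨e, heW⟩, he⟩ : E') ≠ 1 := by
      intro h
      exact he1 (congrArg (fun x : E' => ((x : Wt) : G)) h)
    have hz : (⟨⟨e', he'W⟩, he'⟩ : E') ∈ Subgroup.zpowers (⟨⟨e, heW⟩, he⟩ : E') :=
      mem_zpowers_of_prime_card hcard hne
    obtain ⟨z, hz⟩ := Subgroup.mem_zpowers_iff.1 hz
    have h1 : e' = e ^ z := by
      have := congrArg (fun x : E' => ((x : Wt) : G)) hz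
      simpa using this.symm
    rw [h1]
    have hc : Commute e n := mul_inv_eq_iff_eq_mul.mp hen
    exact (hc.zpow_left z).eq
  rw [hC, Subgroup.mem_bot] at hn'
  exact hn'

/-- Part (e): `p` odd is impossible. -/
theorem Layer.odd_false [Finite G] [Group.IsSolvable G] {H Y N Wt : Subgroup G} {p : ℕ}
    (hp : p.Prime) (hp2 : p ≠ 2) (s : St H Y) (L : Layer H N Wt p)
    (hN : Chief ⊥ N) (hNE : N ≤ ⁅H, H⁆)
    (hel : ∀ c ∈ H, c ^ p ∈ Y)
    (hnc : ∀ c ∈ H, ∃ c' ∈ H, ∀ k : ℕ, c' * (c ^ k)⁻¹ ∉ Y) : False := by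
  classical
  haveI : Fact p.Prime := ⟨hp⟩
  haveI hHn : H.Normal := s.nH
  haveI hEn : (⁅H, H⁆ : Subgroup G).Normal := Subgroup.commutator_normal H H
  have hNn := hN.nL
  have hNab := Cfsg.Agent.Lib.NDF.ChiefE.chief_comm hN
  have hNab' : ∀ a ∈ N, ∀ b ∈ N, a * b = b * a := by
    intro a ha' b hb'
    have h := hNab a ha' b hb'
    rw [Subgroup.mem_bot] at h
    exact mul_inv_eq_iff_eq_mul.mp (mul_inv_eq_one.mp h)
  have hN1 : N ≠ ⊥ := fun h => hN.ne h.symm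
  have hWH : commutator G ≤ H := by
    rw [commutator_def, Subgroup.commutator_le]
    intro a _ b _
    exact s.ab a b
  have hWW : ∀ a ∈ Wt, ∀ b ∈ Wt, a * b * a⁻¹ * b⁻¹ ∈ (⁅H, H⁆ : Subgroup G) := by
    intro a ha' b hb'
    rw [← s.E2]
    exact Subgroup.commutator_mem_commutator (L.WtW ha') (L.WtW hb')
  have hWp0 : ∀ a ∈ Wt, a ^ p ∈ (⁅H, H⁆ : Subgroup G) := by
    intro a ha
    rw [← s.GE]
    exact ⟨(commutator G).pow_mem (L.WtW ha) p, hel a (hWH (L.WtW ha))⟩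
  let E' : Subgroup Wt := (⁅H, H⁆ : Subgroup G).subgroupOf Wt
  have hcardE : Nat.card E' = p := L.card
  have hEexp : ∀ e : Wt, e ∈ E' → e ^ p = 1 := by
    intro e he
    have h1 : (⟨e, he⟩ : E') ^ p = 1 := by
      conv_lhs => rw [← hcardE]
      exact pow_card_eq_one'
    simpa using congrArg Subtype.val h1
  have hcen : ∀ e : Wt, e ∈ E' → ∀ a : Wt, Commute e a := by
    intro e he a
    have := L.cen e he e.2 a a.2
    exact (Subtype.ext this).symm
  -- the `p`-th power map is a homomorphism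
  have hmul : ∀ x y : Wt, (x * y) ^ p = x ^ p * y ^ p := by
    intro x y
    set c : Wt := y⁻¹ * x⁻¹ * y * x with hc
    have hcE : c ∈ E' := by
      have h := hWW _ (Wt.inv_mem y.2) _ (Wt.inv_mem x.2)
      rw [Subgroup.mem_subgroupOf]
      simpa [hc] using h
    have h1 := pow_class_two x y c (by rw [hc]; group) (hcen c hcE x) (hcen c hcE y) p
    have h2 : p ∣ Nat.choose p 2 := hp.dvd_choose_self (by norm_num)
      (lt_of_le_of_ne hp.two_le (Ne.symm hp2))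
    obtain ⟨t, ht⟩ := h2
    rw [h1, ht, pow_mul, hEexp c hcE, one_pow, mul_one]
  let φ : Wt →* E' := MonoidHom.mk' (fun x => (⟨x ^ p, hWp0 x x.2⟩ : E')) (by
    intro x y
    apply Subtype.ext
    exact hmul x y)
  -- a noncentral element of order `p`
  obtain ⟨a, haK, haE⟩ : ∃ a : Wt, φ a = 1 ∧ a ∉ E' := by
    by_contra hcon
    have hle : φ.ker ≤ E' := fun x hx => by_contra (fun hx' => hcon ⟨x, hx, hx'⟩)
    have h1 : Nat.card φ.ker ≤ p := by
      have := Subgroup.card_le_of_le hle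
      rwa [hcardE] at this
    have h2 : φ.ker.index ≤ p := by
      rw [Subgroup.index_ker]
      have := Subgroup.card_le_card_group φ.range
      rwa [hcardE] at this
    have h3 : Nat.card Wt = p * p ^ 2 := by
      rw [← Subgroup.card_mul_index E', hcardE, L.idx]
    have h4 := Subgroup.card_mul_index φ.ker
    have h5 : Nat.card φ.ker * φ.ker.index ≤ p * p := Nat.mul_le_mul h1 h2
    rw [h4, h3] at h5
    have : 2 ≤ p := hp.two_le
    nlinarith
  have hap : (a : G) ^ p = 1 := by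
    have := congrArg (fun x : E' => ((x : Wt) : G)) haK
    simpa [φ] using this
  -- a nontrivial element of `E_L`
  obtain ⟨e, he1⟩ : ∃ e : E', e ≠ 1 := by
    haveI : Nontrivial E' := by
      rw [← Finite.one_lt_card_iff_nontrivial, hcardE]
      exact hp.one_lt
    exact exists_ne 1
  have heE : ((e : Wt) : G) ∈ (⁅H, H⁆ : Subgroup G) := e.2
  have he1' : ((e : Wt) : G) ≠ 1 := fun h => he1 (Subtype.ext (Subtype.ext h))
  have hep : ((e : Wt) : G) ^ p = 1 := by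
    have := hEexp e e.2
    simpa using congrArg Subtype.val this
  have hace : (a : G) * ((e : Wt) : G) = ((e : Wt) : G) * a := L.cen _ heE (e : Wt).2 a a.2
  -- the group generated by `a` and `e`
  let U : Subgroup G := Subgroup.closure {(a : G), ((e : Wt) : G)}
  have hUW : U ≤ Wt := by
    rw [Subgroup.closure_le]
    rintro x (rfl | rfl)
    · exact a.2
    · exact (e : Wt).2
  have hkc : ∀ x ∈ ({(a : G), ((e : Wt) : G)} : Set G), ∀ y ∈ ({(a : G), ((e : Wt) : G)} : Set G),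
      x * y = y * x := by
    rintro x (rfl | rfl) y (rfl | rfl)
    · rfl
    · exact hace
    · exact hace.symm
    · rfl
  have hUc : ∀ u ∈ U, ∀ v ∈ U, u * v = v * u := by
    intro u hu v hv
    letI := Subgroup.closureCommGroupOfComm hkc
    exact congrArg Subtype.val (mul_comm (⟨u, hu⟩ : U) ⟨v, hv⟩)
  have hUp : ∀ u ∈ U, u ^ p = 1 := by
    intro u hu
    have hle : U ≤ φ.ker.map Wt.subtype := by
      rw [Subgroup.closure_le]
      rintro x (rfl | rfl)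
      · exact ⟨a, haK, rfl⟩
      · refine ⟨e, ?_, rfl⟩
        apply Subtype.ext
        exact hEexp e e.2
    obtain ⟨y, hy, rfl⟩ := hle hu
    have := congrArg (fun x : E' => ((x : Wt) : G)) hy
    simpa [φ] using this
  have hfix := L.center_fpf hp s hN hNE hnc
  obtain ⟨c, hcU, hc⟩ := Cfsg.Agent.Lib.NDF.CyclicFpf.cyclic_fpf (N := N) (U := U)
    (J := ⊥) hNab' hN1 (fun u _ n hn => hNn.conj_mem n hn u)
    (by
      intro u hu v hv n _
      rw [show u * (v * n * v⁻¹) * u⁻¹ = (u * v) * n * (u * v)⁻¹ by group, hUc u hu v hv]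
      group)
    bot_le
    (by
      intro u hu hu1 n hn hun
      have hu1' : u ≠ 1 := fun h => hu1 (by rw [h]; exact Subgroup.one_mem _)
      by_cases huE : u ∈ (⁅H, H⁆ : Subgroup G)
      · exact hfix u huE (hUW hu) hu1' n hn hun
      · exact L.fpf u (hUW hu) huE n hn hun)
  obtain ⟨i, hi⟩ := hc (a : G) (Subgroup.subset_closure (by simp))
  obtain ⟨j, hj⟩ := hc ((e : Wt) : G) (Subgroup.subset_closure (by simp))
  have hi' : (a : G) = c ^ i := by
    rw [Subgroup.mem_bot, mul_inv_eq_one] at hi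
    exact hi
  have hj' : ((e : Wt) : G) = c ^ j := by
    rw [Subgroup.mem_bot, mul_inv_eq_one] at hj
    exact hj
  have hcp : c ^ p = 1 := hUp c hcU
  have hpj : ¬ p ∣ j := by
    rintro ⟨t, rfl⟩
    apply he1'
    rw [hj', pow_mul, hcp, one_pow]
  obtain ⟨x, hx⟩ := Nat.exists_mul_mod_eq_one_of_coprime
    (((Nat.Prime.coprime_iff_not_dvd hp).2 hpj).symm) hp.one_lt
  have hce : c = ((e : Wt) : G) ^ x := by
    rw [hj', ← pow_mul, pow_eq_pow_mod _ hcp, hx.2, pow_one]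
  apply haE
  show (a : G) ∈ (⁅H, H⁆ : Subgroup G)
  rw [hi', hce]
  exact (⁅H, H⁆ : Subgroup G).pow_mem ((⁅H, H⁆ : Subgroup G).pow_mem heE _) _

end Cfsg.Agent.Lib.NDF.NoLayer
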